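import Cfsg.Agent.DegreeOneP.SquareIndex

/-!
Induction for `p`-groups with degrees dividing `p`.
-/

set_option autoImplicit false
set_option linter.unusedSectionVars false

namespace CfsgLib.DegreeOneP

open Cfsg CfsgLib.CharBasics
open scoped IsMulCommutative

universe u

variable {p : ℕ} [hp : Fact p.Prime]

theorem degDvd_subgroup {G : Type u} [Group G] [Finite G] (M : Subgroup G) [M.Normal] (hD : DegDvd p G) :
    DegDvd p M := fun θ => by
  obtain ⟨χ, hχ⟩ := ItoConverse.degree_dvd_over M θ
  exact hχ.trans (hD χ)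

theorem degDvd_quotient {G : Type u} [Group G] [Finite G] (N : Subgroup G) [N.Normal] (hD : DegDvd p G) :
    DegDvd p (G ⧸ N) := fun ψ => by
  have h := hD ⟨fun x => (ψ : G ⧸ N → ℂ) (QuotientGroup.mk' N x),
    Clifford.isIrrCharacter_comp ψ.2 _ (QuotientGroup.mk'_surjective N)⟩
  simpa [charDegree] using h

theorem normal_of_index_p {G : Type u} [Group G] [Finite G] (hG : IsPGroup p G) {H : Subgroup G} (h : H.index = p) :
    H.Normal := by
  refine Subgroup.normal_of_index_eq_minFac_card ?_
  obtain ⟨k, hk⟩ := hG.exists_card_eq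
  have hk0 : k ≠ 0 := by
    rintro rfl
    have := H.index_dvd_card
    rw [hk, h, pow_zero] at this
    exact hp.out.not_dvd_one this
  rw [h, hk, hp.out.pow_minFac hk0]

theorem isMulCommutative_of_top {G : Type u} [Group G] {H : Subgroup G} [hH : IsMulCommutative H] (h : H = ⊤) :
    IsMulCommutative G :=
  ⟨⟨fun a b => congrArg Subtype.val (mul_comm' (⟨a, h ▸ trivial⟩ : H) ⟨b, h ▸ trivial⟩)⟩⟩

/-- An abelian subgroup of index dividing `p^2` gives the conclusion, or is below a suitable maximal one. -/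
theorem goal_of_abelian_normal {G : Type u} [Group G] [Finite G] (hD : DegDvd p G) (hG : IsPGroup p G)
    (A : Subgroup G) [A.Normal] [hAc : IsMulCommutative A] (h : A.index ∣ p ^ 2) :
    IsMulCommutative G ∨ (∃ A : Subgroup G, A.Normal ∧ IsMulCommutative A ∧ A.index = p) ∨
      (Subgroup.center G).index = p ^ 3 := by
  obtain ⟨i, hi2, hi⟩ := (Nat.dvd_prime_pow hp.out).1 h
  interval_cases i
  · exact Or.inl (isMulCommutative_of_top (Subgroup.index_eq_one.1 (hi.trans (pow_zero p))))
  · exact Or.inr (Or.inl ⟨A, inferInstance, hAc, hi.trans (pow_one p)⟩)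
  · exact goal_of_abelian_index_sq A hD hG hi

/-- A normal maximal subgroup with an abelian subgroup of index dividing `p`. -/
theorem goal_of_maximal {G : Type u} [Group G] [Finite G] (hD : DegDvd p G) (hG : IsPGroup p G)
    (M : Subgroup G) [hM : M.Normal] (hMi : M.index = p) (A : Subgroup G) [hAc : IsMulCommutative A]
    (hA : A ≤ M) (hAi : A.relIndex M ∣ p) :
    IsMulCommutative G ∨ (∃ A : Subgroup G, A.Normal ∧ IsMulCommutative A ∧ A.index = p) ∨
      (Subgroup.center G).index = p ^ 3 := by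
  classical
  have hAidx : A.index ∣ p ^ 2 := by
    rw [← Subgroup.relIndex_mul_index hA, hMi, sq]; exact Nat.mul_dvd_mul_right hAi p
  by_cases hAn : A.Normal
  · exact goal_of_abelian_normal hD hG A hAidx
  -- two abelian subgroups of index `p` in `M`
  obtain ⟨g, hg⟩ : ∃ g : G, A.map (MulAut.conj g).toMonoidHom ≠ A := by
    by_contra h
    push Not at h
    exact hAn ⟨fun a ha g => by
      have := Subgroup.mem_map_of_mem (MulAut.conj g).toMonoidHom ha
      rw [h g] at this
      exact this⟩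
  set A' := A.map (MulAut.conj g).toMonoidHom with hA'
  have hA'c : IsMulCommutative A' := Subgroup.map_isMulCommutative _ _
  have hA'M : A' ≤ M := by
    rintro _ ⟨a, ha, rfl⟩
    exact hM.conj_mem a (hA ha) g
  set W := (Subgroup.center M).map M.subtype with hW
  haveI hWn : W.Normal := ConjAct.normal_of_characteristic_of_normal
  have hWc : IsMulCommutative W := by
    refine ⟨⟨?_⟩⟩
    rintro ⟨_, a, ha, rfl⟩ ⟨_, b, -, rfl⟩
    exact Subtype.ext (show (a : G) * b = (b : G) * a from congrArg Subtype.val ((Subgroup.mem_center_iff.1 ha b).symm))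
  have hAA : A ⊔ A' = M := by
    have hlt : A < A ⊔ A' := lt_of_le_of_ne le_sup_left fun h => hg (by
      refine Subgroup.eq_of_le_of_card_ge (h ▸ le_sup_right) ?_
      rw [Subgroup.card_map_of_injective (MulEquiv.injective _)])
    refine le_antisymm (sup_le hA hA'M) ?_
    have h1 := Subgroup.relIndex_mul_relIndex A (A ⊔ A') M hlt.le (sup_le hA hA'M)
    rw [← Subgroup.relIndex_eq_one]
    rcases (Nat.dvd_prime hp.out).1 hAi with h2 | h2
    · rw [h2] at h1; exact (mul_eq_one.1 h1).2
    · rw [h2] at h1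
      rcases (Nat.dvd_prime hp.out).1 (Dvd.intro _ h1) with h3 | h3
      · exact absurd (Subgroup.relIndex_eq_one.1 h3) (not_le_of_gt hlt)
      · rw [h3] at h1; exact Nat.eq_of_mul_eq_mul_left hp.out.pos (h1.trans (mul_one p).symm)
  have hWidx : W.index ∣ p ^ 3 := by
    have hle : A ⊓ A' ≤ W := by
      intro x hx
      obtain ⟨hxA, hxA'⟩ := Subgroup.mem_inf.1 hx
      refine ⟨⟨x, hA hxA⟩, Subgroup.mem_center_iff.2 fun y => Subtype.ext ?_, rfl⟩
      have hM' : (y : G) ∈ Subgroup.centralizer ({x} : Set G) := by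
        refine (hAA ▸ sup_le ?_ ?_ : M ≤ Subgroup.centralizer ({x} : Set G)) y.2
        · exact fun a ha => Subgroup.mem_centralizer_singleton_iff.2
            (congrArg Subtype.val (mul_comm' (⟨a, ha⟩ : A) ⟨x, hxA⟩))
        · exact fun a ha => Subgroup.mem_centralizer_singleton_iff.2
            (congrArg Subtype.val (mul_comm' (⟨a, ha⟩ : A') ⟨x, hxA'⟩))
      exact Subgroup.mem_centralizer_singleton_iff.1 hM'
    refine (Subgroup.index_dvd_of_le hle).trans ?_
    obtain ⟨i, -, hi⟩ := (Nat.dvd_prime_pow hp.out).1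
      (hG.exists_card_eq.choose_spec ▸ (A ⊓ A').index_dvd_card)
    rw [hi]
    refine pow_dvd_pow p ?_
    have h1 : (A ⊓ A').index ≤ p ^ 3 := by
      rw [← Subgroup.relIndex_mul_index ((inf_le_left : A ⊓ A' ≤ A).trans hA), hMi, pow_succ]
      refine Nat.mul_le_mul_right p ((Subgroup.relIndex_inf_le).trans ?_)
      rw [sq]
      refine Nat.mul_le_mul (Nat.le_of_dvd hp.out.pos hAi) ?_
      have e : A'.relIndex M = A.relIndex M := by
        have h3 := Subgroup.relIndex_mul_index hA'M
        rw [hA', Subgroup.index_map_of_bijective (f := (MulAut.conj g).toMonoidHom) (MulAut.conj g).bijective, ← Subgroup.relIndex_mul_index hA, ← hA'] at h3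
        exact Nat.eq_of_mul_eq_mul_right (hMi ▸ hp.out.pos) h3
      exact e ▸ Nat.le_of_dvd hp.out.pos hAi
    rw [hi] at h1
    exact (Nat.pow_le_pow_iff_right hp.out.one_lt).1 h1
  obtain ⟨i, hi3, hi⟩ := (Nat.dvd_prime_pow hp.out).1 hWidx
  rcases Nat.lt_or_ge i 3 with hlt | hge
  · exact goal_of_abelian_normal hD hG W (hi ▸ pow_dvd_pow p (by omega))
  -- add one element that is central modulo `W`
  have hWM : W ≤ M := Subgroup.map_subtype_le _
  set Mb := M.map (QuotientGroup.mk' W) with hMb
  haveI : Mb.Normal := Subgroup.Normal.map hM _ (QuotientGroup.mk'_surjective W)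
  have hMb0 : Mb ≠ ⊥ := by
    intro h
    rw [hMb, Subgroup.map_eq_bot_iff, QuotientGroup.ker_mk'] at h
    rw [le_antisymm hWM h, hMi, show i = 3 by omega] at hi
    nlinarith [hp.out.two_le, Nat.le_self_pow (show (2 : ℕ) ≠ 0 by omega) p, pow_succ p 2]
  obtain ⟨xb, hxb, hxb1⟩ := (Subgroup.bot_or_exists_ne_one _).resolve_left
    (PReduced.inf_center_ne_bot (hG.to_quotient W) hMb0)
  obtain ⟨hxM, hxC⟩ := Subgroup.mem_inf.1 hxb
  obtain ⟨x, hx, rfl⟩ := hxM
  set B := W ⊔ Subgroup.zpowers x with hB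
  have hxW : x ∉ W := fun h => hxb1 ((QuotientGroup.eq_one_iff x).2 h)
  have hBn : B.Normal := by
    have e : B = ((Subgroup.zpowers (QuotientGroup.mk' W x)).comap (QuotientGroup.mk' W)) := by
      rw [← MonoidHom.map_zpowers, Subgroup.comap_map_eq, QuotientGroup.ker_mk', sup_comm]
    rw [e]
    have : (Subgroup.zpowers (QuotientGroup.mk' W x)).Normal := ⟨fun z hz q => by
      have hzc := Subgroup.zpowers_le.2 hxC hz
      rw [Subgroup.mem_center_iff.1 hzc q, mul_inv_cancel_right]
      exact hz⟩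
    exact this.comap _
  have hBc : IsMulCommutative B := by
    rw [hB, show W ⊔ Subgroup.zpowers x = Subgroup.closure ((W : Set G) ∪ {x}) by
      rw [Subgroup.closure_union, Subgroup.closure_eq, Subgroup.zpowers_eq_closure]]
    refine Subgroup.isMulCommutative_closure ?_
    have hwx : ∀ w ∈ W, w * x = x * w := by
      rintro _ ⟨w, hw, rfl⟩
      exact (congrArg Subtype.val (Subgroup.mem_center_iff.1 hw ⟨x, hx⟩)).symm
    intro a ha b hb
    rcases ha with ha | ha <;> rcases hb with hb | hb
    · exact congrArg Subtype.val (mul_comm' (⟨a, ha⟩ : W) ⟨b, hb⟩)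
    · rw [Set.mem_singleton_iff.1 hb]; exact hwx a ha
    · rw [Set.mem_singleton_iff.1 ha]; exact (hwx b hb).symm
    · rw [Set.mem_singleton_iff.1 ha, Set.mem_singleton_iff.1 hb]
  refine goal_of_abelian_normal hD hG B ?_
  have hlt : W < B := lt_of_le_of_ne le_sup_left fun h => hxW (h ▸ Subgroup.mem_sup_right (Subgroup.mem_zpowers x))
  obtain ⟨j, -, hj⟩ := (Nat.dvd_prime_pow hp.out).1 ((Subgroup.index_dvd_of_le hlt.le).trans hWidx)
  have h2 := Subgroup.index_strictAnti hlt
  rw [hj, hi, Nat.pow_lt_pow_iff_right hp.out.one_lt] at h2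
  rw [hj]
  exact pow_dvd_pow p (by omega)

theorem goal_pGroup : ∀ (G : Type u) [Group G] [Finite G], IsPGroup p G → DegDvd p G →
    IsMulCommutative G ∨ (∃ A : Subgroup G, A.Normal ∧ IsMulCommutative A ∧ A.index = p) ∨
      (Subgroup.center G).index = p ^ 3 := by
  suffices main : ∀ (n : ℕ) (G : Type u) [Group G] [Finite G], Nat.card G = n → IsPGroup p G → DegDvd p G →
      IsMulCommutative G ∨ (∃ A : Subgroup G, A.Normal ∧ IsMulCommutative A ∧ A.index = p) ∨
        (Subgroup.center G).index = p ^ 3 from fun G _ _ => main _ G rfl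
  intro n
  induction n using Nat.strong_induction_on with
  | _ n ih =>
  intro G _ _ hn hG hD
  classical
  by_cases hGc : IsMulCommutative G
  · exact Or.inl hGc
  obtain ⟨a, b, hab⟩ : ∃ a b : G, a * b ≠ b * a := by
    by_contra h
    push Not at h
    exact hGc ⟨⟨h⟩⟩
  obtain ⟨c, hc⟩ := hG.exists_card_eq
  have hc0 : c ≠ 0 := by
    rintro rfl
    rw [pow_zero] at hc
    haveI := (Nat.card_eq_one_iff_unique.1 hc).1
    exact hab (Subsingleton.elim _ _)
  -- maximal subgroups contain every proper subgroup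
  have hmax : ∀ B : Subgroup G, B ≠ ⊤ → ∃ M : Subgroup G, M.Normal ∧ M.index = p ∧ B ≤ M := by
    intro B hB
    obtain ⟨j, hj⟩ := (hG.to_subgroup B).exists_card_eq
    have hjc : j < c := by
      have h1 : Nat.card B < Nat.card G :=
        lt_of_le_of_ne (Subgroup.card_le_card_group B) fun h => hB (Subgroup.eq_top_of_card_eq B h)
      rw [hj, hc] at h1
      exact (Nat.pow_lt_pow_iff_right hp.out.one_lt).1 h1
    obtain ⟨M, hM, hBM⟩ := Sylow.exists_subgroup_card_pow_prime_le p (n := j) (m := c - 1) (G := G)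
      (hc ▸ pow_dvd_pow p (Nat.sub_le c 1)) B hj (Nat.le_sub_one_of_lt hjc)
    have hMi : M.index = p := by
      have h1 := M.card_mul_index
      rw [hM, hc] at h1
      refine Nat.eq_of_mul_eq_mul_left (pow_pos hp.out.pos (c - 1)) (h1.trans ?_)
      rw [← pow_succ, Nat.sub_add_cancel (Nat.pos_of_ne_zero hc0)]
    exact ⟨M, normal_of_index_p hG hMi, hMi, hBM⟩
  obtain ⟨M, hMn, hMi, -⟩ := hmax ⊥ fun h => hab (by
    have h1 : a = 1 := Subgroup.mem_bot.1 (h ▸ Subgroup.mem_top a)
    rw [h1, one_mul, mul_one])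
  have hlt : Nat.card M < n := by
    rw [← hn, ← M.card_mul_index, hMi]
    exact lt_mul_of_one_lt_right Nat.card_pos hp.out.one_lt
  have hstep : ∀ (M : Subgroup G) [M.Normal], M.index = p → ∀ B : Subgroup M, IsMulCommutative B →
      B.index ∣ p → IsMulCommutative G ∨ (∃ A : Subgroup G, A.Normal ∧ IsMulCommutative A ∧ A.index = p) ∨
        (Subgroup.center G).index = p ^ 3 := by
    intro M _ hMi B hBc hBi
    haveI := Subgroup.map_isMulCommutative B M.subtype
    refine goal_of_maximal hD hG M hMi (B.map M.subtype) (Subgroup.map_subtype_le B) ?_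
    rw [Subgroup.relIndex, Subgroup.subgroupOf, Subgroup.comap_map_eq_self_of_injective M.subtype_injective]
    exact hBi
  rcases ih _ hlt M rfl (hG.to_subgroup M) (degDvd_subgroup M hD) with h | ⟨B, -, hBc, hBi⟩ | hZ
  · exact Or.inr (Or.inl ⟨M, hMn, h, hMi⟩)
  · exact hstep M hMi B hBc hBi.dvd
  set W := (Subgroup.center M).map M.subtype with hW
  haveI hWn : W.Normal := ConjAct.normal_of_characteristic_of_normal
  haveI hWc : IsMulCommutative W := by
    refine ⟨⟨?_⟩⟩
    rintro ⟨_, a, ha, rfl⟩ ⟨_, b, -, rfl⟩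
    exact Subtype.ext (show (a : G) * b = (b : G) * a from congrArg Subtype.val ((Subgroup.mem_center_iff.1 ha b).symm))
  have hWidx : W.index = p ^ 4 := by rw [hW, Subgroup.index_map_subtype, hZ, hMi]; ring
  -- `W` is central in `G`
  have hWZ : W ≤ Subgroup.center G := by
    intro z hz
    rw [Subgroup.mem_center_iff]
    by_contra hne
    push Not at hne
    obtain ⟨g, hg⟩ := hne
    obtain ⟨φ₀, hφ₀⟩ := exists_hom_ne_one W (a := delta W g ⟨z, hz⟩)
      fun h => hg ((delta_eq_one_iff W g ⟨z, hz⟩).1 h)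
    have hMs : ∀ φ : W →* ℂˣ, M ≤ stab W φ := fun φ m hm => (mem_stab W).2 fun w => by
      have : delta W m w = 1 := (delta_eq_one_iff W m w).2 (by
        obtain ⟨w', hw', he⟩ := w.2
        rw [← he]
        exact congrArg Subtype.val (Subgroup.mem_center_iff.1 hw' ⟨m, hm⟩))
      rw [this, map_one]
    have hkill : ∀ φ : W →* ℂˣ, ¬ g ∈ stab W φ → ∀ x y : M, ∃ h : (x : G) * y * (x : G)⁻¹ * (y : G)⁻¹ ∈ W,
        φ ⟨_, h⟩ = 1 := by
      intro φ hφ x y
      refine commutator_mem_of_index W hD ?_ (hMs φ x.2) (hMs φ y.2)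
      refine ((Nat.dvd_prime hp.out).1 (index_stab_dvd W hD φ)).resolve_left fun h => hφ ?_
      rw [Subgroup.index_eq_one.1 h]; trivial
    have hg0 : ¬ g ∈ stab W φ₀ := fun h => hφ₀ ((mem_stab W).1 h _)
    have hMc : IsMulCommutative M := by
      refine ⟨⟨fun x y => ?_⟩⟩
      obtain ⟨h, h0⟩ := hkill φ₀ hg0 x y
      by_contra hne
      have hc1 : (⟨_, h⟩ : W) ≠ 1 := fun e => hne (Subtype.ext (by
        have e' : (x : G) * y * (x : G)⁻¹ * (y : G)⁻¹ = 1 := congrArg Subtype.val e
        have e2 := congrArg (fun t : G => t * (y : G) * (x : G)) e'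
        simpa [mul_assoc] using e2))
      obtain ⟨φ, hφ⟩ := exists_hom_ne_one W hc1
      by_cases hgφ : g ∈ stab W φ
      · obtain ⟨_, h1⟩ := hkill (φ * φ₀) (fun hh => hφ₀ (by
          have h2 := (mem_stab W).1 hh ⟨z, hz⟩
          rwa [MonoidHom.mul_apply, (mem_stab W).1 hgφ, one_mul] at h2)) x y
        rw [MonoidHom.mul_apply, h0, mul_one] at h1
        exact hφ h1
      · exact hφ (hkill φ hgφ x y).choose_spec
    have hMtop : Subgroup.center M = ⊤ := top_unique fun x _ => Subgroup.mem_center_iff.2 fun y => mul_comm' y x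
    rw [hMtop, Subgroup.index_top] at hZ
    have : 1 < p ^ 3 := Nat.one_lt_pow (by omega) hp.out.one_lt
    omega
  have hZd : (Subgroup.center G).index ∣ p ^ 4 := hWidx ▸ Subgroup.index_dvd_of_le hWZ
  obtain ⟨i, hi4, hi⟩ := (Nat.dvd_prime_pow hp.out).1 hZd
  rcases Nat.lt_or_ge i 4 with hi3 | hi3
  · exact exists_abelian_index_of_center_index_dvd hG (hi ▸ pow_dvd_pow p (by omega))
  replace hi : (Subgroup.center G).index = p ^ 4 := by rw [hi, show i = 4 by omega]
  set Z := Subgroup.center G with hZdef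
  -- some class of a noncentral element has length at most `p^2`
  obtain ⟨g, hgZ, hgC⟩ : ∃ g : G, g ∉ Z ∧ (Subgroup.centralizer ({g} : Set G)).index ≤ p ^ 2 := by
    by_contra hall
    push Not at hall
    haveI := Fintype.ofFinite G
    haveI := Fintype.ofFinite (ConjClasses G)
    haveI := finite_irrCharacter (G := G)
    haveI := Fintype.ofFinite (IrrCharacter G)
    have hk : Nat.card G ≤ Nat.card (ConjClasses G) * p ^ 2 := by
      rw [← card_irr, ← sum_sq_degree, Nat.card_eq_fintype_card (α := IrrCharacter G), ← Finset.card_univ,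
        ← smul_eq_mul, ← Finset.sum_const]
      exact Finset.sum_le_sum fun χ _ => Nat.pow_le_pow_left (Nat.le_of_dvd hp.out.pos (hD χ)) 2
    have hlen : ∀ C ∈ ConjClasses.noncenter G, p ^ 3 ≤ Nat.card C.carrier := by
      intro C hC
      obtain ⟨x, rfl⟩ := ConjClasses.exists_rep C
      have hx : x ∉ Z := fun hx => (ConjClasses.mem_noncenter _).1 hC |>.not_subsingleton (fun u hu v hv => by
        rw [ConjClasses.mem_carrier_iff_mk_eq, ConjClasses.mk_eq_mk_iff_isConj, isConj_comm] at hu hv
        obtain ⟨cu, hcu⟩ := isConj_iff.1 hu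
        obtain ⟨cv, hcv⟩ := isConj_iff.1 hv
        rw [← hcu, ← hcv, Subgroup.mem_center_iff.1 hx cu, Subgroup.mem_center_iff.1 hx cv, mul_inv_cancel_right,
          mul_inv_cancel_right])
      have h1 := hall x hx
      rw [Nat.card_coe_set_eq, ClassSize.index_centralizer_eq_ncard]
      obtain ⟨j, -, hj⟩ := (Nat.dvd_prime_pow hp.out).1 (hc ▸ (Subgroup.centralizer ({x} : Set G)).index_dvd_card)
      rw [hj] at h1 ⊢
      exact Nat.pow_le_pow_right hp.out.pos ((Nat.pow_lt_pow_iff_right hp.out.one_lt).1 h1)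
    have hsum : Nat.card Z + (Nat.card (ConjClasses G) - Nat.card Z) * p ^ 3 ≤ Nat.card G := by
      rw [← Group.nat_card_center_add_sum_card_noncenter_eq_card G, finsum_mem_eq_finite_toFinset_sum _ (Set.toFinite _)]
      refine Nat.add_le_add_left ?_ _
      have e : Nat.card (ConjClasses G) - Nat.card Z = (Set.toFinite (ConjClasses.noncenter G)).toFinset.card := by
        rw [← Set.ncard_eq_toFinset_card _ (Set.toFinite (ConjClasses.noncenter G))]
        have h2 : (ConjClasses.noncenter G)ᶜ.ncard = Nat.card Z := by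
          rw [← Nat.card_coe_set_eq]
          exact (Nat.card_congr ((ConjClasses.mk_bijOn G).equiv _)).symm
        have h3 := Set.ncard_add_ncard_compl (ConjClasses.noncenter G)
        omega
      rw [e, ← smul_eq_mul, ← Finset.sum_const]
      exact Finset.sum_le_sum fun C hC => hlen C ((Set.Finite.mem_toFinset _).1 hC)
    have hG4 := Z.card_mul_index
    rw [hi] at hG4
    rw [← hG4] at hk hsum
    have hp2 := hp.out.two_le
    have hk2 : Nat.card Z * p ^ 2 ≤ Nat.card (ConjClasses G) :=
      Nat.le_of_mul_le_mul_right (le_trans (le_of_eq (by ring)) hk) (by positivity)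
    have hkZ : Nat.card Z ≤ Nat.card (ConjClasses G) := (Nat.le_mul_of_pos_right _ (by positivity)).trans hk2
    obtain ⟨r, hr⟩ := Nat.exists_eq_add_of_le hkZ
    rw [hr, Nat.add_sub_cancel_left] at hsum
    rw [hr] at hk2
    have hr1 : Nat.card Z * p ≤ r := by
      have : Nat.card Z * (1 + p) ≤ Nat.card Z * p ^ 2 := Nat.mul_le_mul_left _ (by nlinarith)
      linarith
    have hr2 : p ^ 3 * r + Nat.card Z ≤ p ^ 3 * (Nat.card Z * p) := le_trans (le_of_eq (by ring)) (hsum.trans (le_of_eq (by ring)))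
    have := Nat.mul_le_mul_left (p ^ 3) hr1
    have := Nat.card_pos (α := Z)
    omega
  -- a large abelian subgroup
  have key : ∃ B : Subgroup G, IsMulCommutative B ∧ B.index ∣ p ^ 2 := by
    have hcl : ∀ S : Set G, (∀ x ∈ S, ∀ y ∈ S, x * y = y * x) →
        IsMulCommutative (Subgroup.closure ((Z : Set G) ∪ S)) := fun S hS => by
      refine Subgroup.isMulCommutative_closure ?_
      intro x hx y hy
      rcases hx with hx | hx
      · exact (Subgroup.mem_center_iff.1 hx y).symm
      rcases hy with hy | hy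
      · exact Subgroup.mem_center_iff.1 hy x
      · exact hS x hx y hy
    set B1 := Subgroup.closure ((Z : Set G) ∪ {g}) with hB1
    have hB1c := hcl {g} (by intro x hx y hy; rw [Set.mem_singleton_iff.1 hx, Set.mem_singleton_iff.1 hy])
    have hZB1 : Z < B1 := lt_of_le_of_ne (fun z hz => Subgroup.subset_closure (Or.inl hz)) fun h =>
      hgZ (h ▸ Subgroup.subset_closure (Or.inr rfl))
    obtain ⟨j, -, hj⟩ := (Nat.dvd_prime_pow hp.out).1 (hi ▸ Subgroup.index_dvd_of_le hZB1.le)
    have hj4 := Subgroup.index_strictAnti hZB1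
    rw [hj, hi, Nat.pow_lt_pow_iff_right hp.out.one_lt] at hj4
    rcases Nat.lt_or_ge j 3 with hj2 | hj2
    · exact ⟨B1, hB1c, hj ▸ pow_dvd_pow p (by omega)⟩
    have hB1C : B1 ≤ Subgroup.centralizer ({g} : Set G) := by
      rw [hB1, Subgroup.closure_le]
      rintro x (hx | hx)
      · exact Subgroup.mem_centralizer_singleton_iff.2 ((Subgroup.mem_center_iff.1 hx g).symm)
      · rw [Set.mem_singleton_iff.1 hx]; exact Subgroup.mem_centralizer_singleton_iff.2 rfl
    obtain ⟨h, hhC, hhB⟩ : ∃ h ∈ Subgroup.centralizer ({g} : Set G), h ∉ B1 := by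
      by_contra hcon
      push Not at hcon
      have h1 := Nat.le_of_dvd (Nat.pos_of_ne_zero Subgroup.index_ne_zero_of_finite)
        (Subgroup.index_dvd_of_le (H := Subgroup.centralizer ({g} : Set G)) hcon)
      rw [hj] at h1
      have := Nat.pow_lt_pow_right hp.out.one_lt (show 2 < j by omega)
      omega
    set B := Subgroup.closure ((Z : Set G) ∪ {g, h}) with hBdef
    have hgh : h * g = g * h := Subgroup.mem_centralizer_singleton_iff.1 hhC
    have hBc := hcl {g, h} (by
      intro x hx y hy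
      simp only [Set.mem_insert_iff, Set.mem_singleton_iff] at hx hy
      rcases hx with rfl | rfl <;> rcases hy with rfl | rfl
      exacts [rfl, hgh.symm, hgh, rfl])
    refine ⟨B, hBc, ?_⟩
    have hlt : B1 < B := lt_of_le_of_ne (Subgroup.closure_mono (Set.union_subset_union_right _ (by simp)))
      fun e => hhB (e ▸ Subgroup.subset_closure (Or.inr (by simp)))
    obtain ⟨l, -, hl⟩ := (Nat.dvd_prime_pow hp.out).1 (hj ▸ Subgroup.index_dvd_of_le hlt.le)
    have := Subgroup.index_strictAnti hlt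
    rw [hl, hj, Nat.pow_lt_pow_iff_right hp.out.one_lt] at this
    rw [hl]
    exact pow_dvd_pow p (by omega)
  obtain ⟨B, hBc, hBi⟩ := key
  have hBtop : B ≠ ⊤ := fun h => hGc (isMulCommutative_of_top h)
  obtain ⟨M', hM'n, hM'i, hBM⟩ := hmax B hBtop
  refine goal_of_maximal hD hG M' hM'i B hBM ?_
  rw [← Subgroup.relIndex_mul_index hBM, hM'i, sq] at hBi
  exact Nat.dvd_of_mul_dvd_mul_right hp.out.pos hBi

end CfsgLib.DegreeOneP
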