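import Cfsg.Agent.DegreeOneP.Setup
import Cfsg.Agent.S4455

/-!
Thompson's theorem on degrees divisible by `p`.
-/

set_option autoImplicit false
set_option linter.unusedSectionVars false

namespace CfsgLib.DegreeOneP

open Cfsg CfsgLib.CharBasics

universe u

variable {G : Type u} [Group G] [Finite G] {p : ℕ} [hp : Fact p.Prime]

/-- Thompson: if every nonlinear degree is divisible by `p` then `O^p(G)` has order prime to `p`. -/
theorem not_dvd_card_pResidual (h : ∀ χ : IrrCharacter G, charDegree (χ : G → ℂ) = 1 ∨ p ∣ charDegree (χ : G → ℂ)) :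
    ¬ p ∣ Nat.card (Cfsg.pResidual p G) := by
  classical
  haveI := finite_irrCharacter (G := G)
  haveI : Finite (G →* ℂˣ) := Finite.of_injective
    (fun f => (⟨fun g => ((f g : ℂˣ) : ℂ), Clifford.isIrrCharacter_of_hom ((Units.coeHom ℂ).comp f)⟩ : IrrCharacter G))
    fun f f' hh => MonoidHom.ext fun g => Units.ext (congrFun (congrArg Subtype.val hh) g)
  let H : Subgroup (G →* ℂˣ) :=
    { carrier := {f | ¬ p ∣ orderOf f}
      one_mem' := by simp [hp.out.ne_one]
      inv_mem' := by simp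
      mul_mem' := fun {a b} ha hb hd => by
        rcases hp.out.dvd_mul.1 (hd.trans (((Commute.all a b).orderOf_mul_dvd_lcm).trans (Nat.lcm_dvd_mul _ _))) with h | h
        exacts [ha h, hb h] }
  have hH : ¬ p ∣ Nat.card H := fun hd => by
    obtain ⟨x, hx⟩ := exists_prime_orderOf_dvd_card' p hd
    exact x.2 (by rw [Subgroup.orderOf_coe, hx])
  have hdet : ∀ f : G →* ℂˣ, detOrder (fun g => ((f g : ℂˣ) : ℂ)) = orderOf f := by
    intro f
    let μ : G →* ℂ := (Units.coeHom ℂ).comp f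
    obtain ⟨n, ρ, hρ, hχ⟩ := Clifford.isIrrCharacter_of_hom μ
    have h1 : n = 1 := by
      have := congrFun hχ 1
      simpa using this
    subst h1
    have e : detChar (fun g => ((f g : ℂˣ) : ℂ)) = fun g => ((f g : ℂˣ) : ℂ) := by
      rw [show (fun g => ((f g : ℂˣ) : ℂ)) = fun g => μ g from rfl,
        Clifford.detChar_eq (Clifford.isIrrCharacter_of_hom μ) ρ hχ]
      funext g
      rw [Clifford.det_eq_trace_fin_one]
      exact congrFun hχ g
    rw [detOrder, e]
    exact orderOf_injective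
      ({ toFun := fun f g => ((f g : ℂˣ) : ℂ)
         map_one' := rfl
         map_mul' := fun a b => funext fun g => by simp } : (G →* ℂˣ) →* (G → ℂ))
      (fun a b hh => MonoidHom.ext fun g => Units.ext (congrFun hh g)) f
  set S := {χ : IrrCharacter G | ¬ p ∣ charDegree (χ : G → ℂ) ∧ ¬ p ∣ detOrder (χ : G → ℂ)}
  have hS : ∀ χ ∈ S, charDegree (χ : G → ℂ) = 1 := fun χ hχ => (h χ).resolve_right hχ.1
  have hcard : Nat.card H = Nat.card S := by
    refine Nat.card_congr (Equiv.ofBijective (fun f => ⟨⟨fun g => ((f.1 g : ℂˣ) : ℂ),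
      Clifford.isIrrCharacter_of_hom ((Units.coeHom ℂ).comp f.1)⟩, ⟨?_, ?_⟩⟩) ⟨?_, ?_⟩)
    · simp only [charDegree, map_one, Units.val_one, Complex.one_re, Nat.floor_one]
      exact hp.out.not_dvd_one
    · rw [hdet]; exact f.2
    · intro f f' hh
      exact Subtype.ext (MonoidHom.ext fun g => Units.ext (congrFun (congrArg (fun z : S => ((z : IrrCharacter G) : G → ℂ)) hh) g))
    · rintro ⟨χ, hχ⟩
      obtain ⟨μ, hμ⟩ := Clifford.exists_hom_of_linear (isCharacter_of_irr χ.2)
        (by rw [apply_one (isCharacter_of_irr χ.2), hS χ hχ, Nat.cast_one])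
      refine ⟨⟨μ.toHomUnits, ?_⟩, Subtype.ext (Subtype.ext hμ.symm)⟩
      show ¬ p ∣ orderOf μ.toHomUnits
      rw [← hdet]
      simpa [hμ] using hχ.2
  intro hd
  have h1 := Cfsg.Agent.S4455.result (G := G) p hp.out
  have h3 : (∑ᶠ χ ∈ S, (Cfsg.charDegree (χ : G → ℂ) : ℤ) ^ 2) = (Nat.card H : ℤ) := by
    rw [hcard, finsum_mem_eq_finite_toFinset_sum _ (Set.toFinite _),
      Finset.sum_congr rfl (g := fun _ => (1 : ℤ)) (fun χ hχ => by
        rw [hS χ ((Set.Finite.mem_toFinset _).1 hχ)]; norm_num),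
      Finset.sum_const, nsmul_eq_mul, mul_one, Nat.card_coe_set_eq, Set.ncard_eq_toFinset_card _ (Set.toFinite _)]
  rw [h3, Int.natCast_modEq_iff] at h1
  exact hH (Nat.modEq_zero_iff_dvd.1 (h1.symm.trans (Nat.modEq_zero_iff_dvd.2 hd)))

end CfsgLib.DegreeOneP
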