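import Cfsg.Agent.DegreeOneP.SquareIndex
import Cfsg.Agent.DegreeOneP.Thompson
import Cfsg.Agent.Clifford.CoprimeDegree
import Cfsg.Agent.GaloisDegree.Basic
import Cfsg.Agent.Transfer.Residual

/-!
Groups with exactly two character degrees.
-/

set_option autoImplicit false
set_option linter.unusedSectionVars false

namespace CfsgLib.DegreeOneP

open Cfsg CfsgLib.CharBasics
open scoped IsMulCommutative

universe u

variable {G : Type u} [Group G] [Finite G]

/-- Degrees are `1` or `m`. -/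
def TwoDeg (m : ℕ) (G : Type u) [Group G] : Prop :=
  ∀ χ : IrrCharacter G, charDegree (χ : G → ℂ) = 1 ∨ charDegree (χ : G → ℂ) = m

theorem twoDeg_quotient {m : ℕ} (N : Subgroup G) [N.Normal] (h : TwoDeg m G) : TwoDeg m (G ⧸ N) := fun ψ => by
  have h' := h ⟨fun x => (ψ : G ⧸ N → ℂ) (QuotientGroup.mk' N x),
    Clifford.isIrrCharacter_comp ψ.2 _ (QuotientGroup.mk'_surjective N)⟩
  simpa [charDegree] using h'

theorem TwoDeg.degDvd {m : ℕ} (h : TwoDeg m G) : DegDvd m G := fun χ => by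
  rcases h χ with h' | h' <;> rw [h'] <;> simp

/-- A nonabelian `p`-group quotient forces `m` to be a power of `p`. -/
theorem exists_pow_of_nonabelian_pQuotient {m p : ℕ} [hp : Fact p.Prime] (h : TwoDeg m G) (R : Subgroup G) [R.Normal]
    (hR : IsPGroup p (G ⧸ R)) (hne : ¬ IsMulCommutative (G ⧸ R)) : ∃ e, m = p ^ e := by
  obtain ⟨χ, hχ⟩ : ∃ χ : IrrCharacter (G ⧸ R), charDegree (χ : G ⧸ R → ℂ) ≠ 1 := by
    by_contra hc
    push Not at hc
    exact hne (ItoConverse.isMulCommutative_of_all_linear hc)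
  obtain ⟨k, hk⟩ := hR.exists_card_eq
  obtain ⟨e, -, he⟩ := (Nat.dvd_prime_pow hp.out).1 (hk ▸ degree_dvd χ)
  exact ⟨e, by rw [← (twoDeg_quotient R h χ).resolve_left hχ, he]⟩

/-- A central element of `C` commutator with a power in an abelian coprime normal subgroup is trivial. -/
theorem eq_of_commutator_mem (N : Subgroup G) [N.Normal] (hcop : N.index.Coprime (Nat.card N)) {a b : G}
    (ha : ∀ n ∈ N, a * n = n * a) (hb : ∀ n ∈ N, b * n = n * b) (hab : a * b * a⁻¹ * b⁻¹ ∈ N) : a * b = b * a := by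
  set cab := a * b * a⁻¹ * b⁻¹ with hcab
  have hcb : b * cab = cab * b := hb _ hab
  have key : ∀ j : ℕ, a * b ^ j * a⁻¹ = cab ^ j * b ^ j := by
    intro j
    induction j with
    | zero => simp
    | succ j ih =>
      have h1 : a * b * a⁻¹ = cab * b := by rw [hcab]; group
      calc a * b ^ (j + 1) * a⁻¹ = (a * b ^ j * a⁻¹) * (a * b * a⁻¹) := by rw [pow_succ]; group
        _ = cab ^ j * (b ^ j * cab) * b := by rw [ih, h1]; group
        _ = cab ^ (j + 1) * b ^ (j + 1) := by
          rw [((show Commute b cab from hcb).pow_left j).eq, pow_succ, pow_succ]; group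
  have hbN : b ^ N.index ∈ N := by
    rw [← QuotientGroup.eq_one_iff, QuotientGroup.mk_pow, Subgroup.index_eq_card]
    exact pow_card_eq_one'
  have h1 := key N.index
  rw [ha _ hbN, mul_inv_cancel_right, right_eq_mul] at h1
  have h2 : orderOf cab ∣ Nat.gcd N.index (Nat.card N) :=
    Nat.dvd_gcd (orderOf_dvd_of_pow_eq_one h1) (Subgroup.orderOf_dvd_natCard N hab)
  rw [hcop.gcd_eq_one, Nat.dvd_one, orderOf_eq_one_iff] at h2
  have := congrArg (fun t : G => t * b * a) h2
  simpa [hcab, mul_assoc] using this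

section

variable (N : Subgroup G) [hNn : N.Normal] [hNc : IsMulCommutative N] {m : ℕ}

/-- A stabiliser is everything or has index `m`, its commutators lying in `N`. -/
theorem stab_cases (h : TwoDeg m G) (hcop : N.index.Coprime (Nat.card N)) (φ : N →* ℂˣ) (hne : stab N φ ≠ ⊤) :
    (stab N φ).index = m ∧ ∀ x ∈ stab N φ, ∀ y ∈ stab N φ, x * y * x⁻¹ * y⁻¹ ∈ N := by
  classical
  haveI := Fintype.ofFinite G
  haveI := Fintype.ofFinite N
  set T := stab N φ with hT
  haveI := Fintype.ofFinite T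
  have hAT : N ≤ T := le_stab N φ
  let E : N.subgroupOf T ≃* N := Subgroup.subgroupOfEquivOfLe hAT
  haveI : Fintype (N.subgroupOf T) := Fintype.ofFinite _
  let θ' : N.subgroupOf T → ℂ := fun n => (lin N φ : N → ℂ) (E n)
  have hθ' : IsIrrCharacter (N.subgroupOf T) θ' :=
    Clifford.isIrrCharacter_comp (lin N φ).2 E.toMonoidHom E.surjective
  have hcop' : (N.subgroupOf T).index.Coprime (Nat.card (N.subgroupOf T)) := by
    rw [Nat.card_congr E.toEquiv]
    exact hcop.coprime_dvd_left ⟨T.index, by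
      rw [show (N.subgroupOf T).index = N.relIndex T from rfl, Subgroup.relIndex_mul_index hAT]⟩
  obtain ⟨η, hη⟩ := CoprimeDegree.exists_extension (K := N.subgroupOf T) hcop' ⟨θ', hθ'⟩
    fun g => funext fun n => congrFun (Clifford.mem_inertia.1 g.2) (E n)
  have hη1 : (η : T → ℂ) 1 = 1 := by
    have h1 := hη 1
    rw [Subgroup.coe_one] at h1
    rw [h1]
    show ((φ (E 1) : ℂˣ) : ℂ) = 1
    rw [map_one E, map_one, Units.val_one]
  have h3 : classInner (fun n : N => (η : T → ℂ) ⟨(n : G), hAT n.2⟩) (lin N φ : N → ℂ) ≠ 0 := by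
    have e : (fun n : N => (η : T → ℂ) ⟨(n : G), hAT n.2⟩) = (lin N φ : N → ℂ) := by
      funext n
      exact (hη ⟨⟨(n : G), hAT n.2⟩, n.2⟩).trans rfl
    rw [e, classInner_self (lin N φ).2]
    exact one_ne_zero
  obtain ⟨hirr, -⟩ := Clifford.indFun_inertia_irr (lin N φ).2 T rfl hAT η.2 h3
  have h4 : charDegree (indFun T (η : T → ℂ)) = T.index := by
    have h5 := indFun_apply_one T (η : T → ℂ)
    rw [apply_one (isCharacter_of_irr hirr), hη1, mul_one] at h5
    exact_mod_cast h5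
  have hidx : T.index = m := by
    rcases h ⟨_, hirr⟩ with h5 | h5
    · exact absurd (Subgroup.index_eq_one.1 (h4 ▸ h5)) hne
    · exact h4 ▸ h5
  exact ⟨hidx, fun x hx y hy => (commutator_mem_of_index N h.degDvd hidx hx hy).1⟩

/-- An element central modulo `C_G(N)` of prime order there fixes no moved character. -/
theorem not_mem_stab_of_central (h : TwoDeg m G) (hcop : N.index.Coprime (Nat.card N)) {z : G}
    (hz : z ∉ Subgroup.centralizer (N : Set G)) {r : ℕ} (hr : r.Prime)
    (hzr : z ^ r ∈ Subgroup.centralizer (N : Set G))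
    (hcen : ∀ g : G, g * z * g⁻¹ * z⁻¹ ∈ Subgroup.centralizer (N : Set G))
    (φ : N →* ℂˣ) (hne : stab N φ ≠ ⊤) : z ∉ stab N φ := by
  classical
  set C := Subgroup.centralizer (N : Set G) with hC
  have hNC : N ≤ C := fun x hx => Subgroup.mem_centralizer_iff.2 fun y hy =>
    congrArg Subtype.val (mul_comm' (⟨y, hy⟩ : N) ⟨x, hx⟩)
  have hrN : r.Coprime (Nat.card N) := by
    refine hcop.coprime_dvd_left ((?_ : r ∣ C.index).trans (Subgroup.index_dvd_of_le hNC))
    haveI : C.Normal := Subgroup.normal_centralizer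
    have h1 : orderOf (z : G ⧸ C) ∣ r := orderOf_dvd_of_pow_eq_one (by
      rw [← QuotientGroup.mk_pow, QuotientGroup.eq_one_iff]; exact hzr)
    rcases (Nat.dvd_prime hr).1 h1 with h2 | h2
    · exact absurd ((QuotientGroup.eq_one_iff z).1 (orderOf_eq_one_iff.1 h2)) hz
    · rw [Subgroup.index_eq_card, ← h2]; exact orderOf_dvd_natCard _
  have hfixC : ∀ c ∈ C, ∀ a : N, MulAut.conjNormal (H := N) c a = a := fun c hc a => by
    apply Subtype.ext
    rw [MulAut.conjNormal_apply, ← Subgroup.mem_centralizer_iff.1 hc a a.2, mul_inv_cancel_right]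
  have hcomm : ∀ (g : G) (a : N), MulAut.conjNormal (H := N) g (MulAut.conjNormal (H := N) z a) =
      MulAut.conjNormal (H := N) z (MulAut.conjNormal (H := N) g a) := by
    intro g a
    rw [← MulAut.mul_apply, ← map_mul, show g * z = (g * z * g⁻¹ * z⁻¹) * (z * g) by group, map_mul,
      MulAut.mul_apply, hfixC _ (hcen g), map_mul, MulAut.mul_apply]
  have hfix : ∀ ψ : N →* ℂˣ, (∀ a, ψ (delta N z (delta N z a)) = 1) → ∀ a, ψ (delta N z a) = 1 := by
    intro ψ hψ a
    set μ : N →* ℂˣ := ψ.comp (delta N z) with hμ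
    have hμfix : ∀ a, μ (MulAut.conjNormal (H := N) z a) = μ a := fun a => by
      have h1 := hψ a
      have h2 : μ (delta N z a) = 1 := h1
      rw [delta_apply, map_mul, map_inv, mul_inv_eq_one] at h2
      exact h2.symm
    have hpow : ∀ (j : ℕ) a, ψ (MulAut.conjNormal (H := N) (z ^ j) a) * μ a ^ j = ψ a := by
      intro j
      induction j with
      | zero => intro a; simp
      | succ j ih =>
        intro a
        have h := ih (MulAut.conjNormal (H := N) z a)
        rw [hμfix] at h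
        rw [pow_succ, map_mul, MulAut.mul_apply, pow_succ, ← mul_assoc, h]
        have h1 : μ a = ψ (delta N z a) := rfl
        rw [delta_apply, map_mul, map_inv] at h1
        rw [h1, mul_comm (ψ a), mul_inv_cancel_left]
    have h := hpow r a
    rw [hfixC _ hzr, mul_eq_left] at h
    have h1 : orderOf (μ a) ∣ Nat.gcd r (Nat.card N) :=
      Nat.dvd_gcd (orderOf_dvd_of_pow_eq_one h) ((orderOf_map_dvd μ a).trans (orderOf_dvd_natCard a))
    rw [hrN.gcd_eq_one, Nat.dvd_one, orderOf_eq_one_iff] at h1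
    exact h1
  intro hzφ
  obtain ⟨n₀, hn₀⟩ : ∃ n : N, delta N z n ≠ 1 := by
    by_contra hc
    push Not at hc
    exact hz (Subgroup.mem_centralizer_iff.2 fun y hy => ((delta_eq_one_iff N z ⟨y, hy⟩).1 (hc _)).symm)
  obtain ⟨φ₀, hφ₀⟩ := exists_hom_ne_one N hn₀
  set ν : N →* ℂˣ := φ₀.comp (delta N z) with hν
  have hνz : z ∉ stab N ν := fun hh => hφ₀ (hfix φ₀ (fun a => (mem_stab N).1 hh a) n₀)
  have hle : stab N (φ * ν) ≤ stab N φ ⊓ stab N ν := by
    intro g hg
    have h2 : ∀ a, φ (delta N g a) * φ₀ (delta N z (delta N g a)) = 1 := fun a => (mem_stab N).1 hg a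
    have hgz : ∀ a, delta N g (MulAut.conjNormal (H := N) z a) = MulAut.conjNormal (H := N) z (delta N g a) := by
      intro a
      rw [delta_apply, delta_apply, map_mul, map_inv, hcomm]
    have hzg : ∀ a, delta N z (delta N g a) = delta N g (delta N z a) := by
      intro a
      rw [delta_apply N z, delta_apply N z a, map_mul (delta N g), map_inv (delta N g), hgz]
    have h3 : ∀ a, φ₀ (delta N z (delta N g a)) = 1 := by
      intro a
      rw [hzg]
      refine hfix (φ₀.comp (delta N g)) (fun b => ?_) a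
      show φ₀ (delta N g (delta N z (delta N z b))) = 1
      rw [← hzg]
      have hb := h2 (delta N z b)
      have hb0 : φ (delta N g (delta N z b)) = 1 := by
        rw [← hzg b]
        exact (mem_stab N).1 hzφ _
      rwa [hb0, one_mul] at hb
    exact Subgroup.mem_inf.2 ⟨(mem_stab N).2 fun a => by
      have := h2 a
      rwa [h3, mul_one] at this, (mem_stab N).2 h3⟩
  have hne' : stab N (φ * ν) ≠ ⊤ := fun e => hne (top_unique (e ▸ hle.trans inf_le_left))
  have heq : stab N (φ * ν) = stab N φ := by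
    refine Subgroup.eq_of_le_of_card_ge (hle.trans inf_le_left) (le_of_eq ?_)
    have h1 := (stab N (φ * ν)).card_mul_index
    have h2 := (stab N φ).card_mul_index
    rw [(stab_cases N h hcop _ hne').1] at h1
    rw [(stab_cases N h hcop _ hne).1] at h2
    refine (Nat.eq_of_mul_eq_mul_right (Nat.pos_of_ne_zero ?_) (h1.trans h2.symm)).symm
    rw [← (stab_cases N h hcop _ hne).1]
    exact Subgroup.index_ne_zero_of_finite
  exact hνz (Subgroup.mem_inf.1 (hle (heq ▸ hzφ))).2

end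

/-- The structure of groups with two character degrees. -/
theorem twoDeg_structure {m : ℕ} (h : TwoDeg m G) (hex : ∃ χ : IrrCharacter G, charDegree (χ : G → ℂ) = m)
    (hm1 : m ≠ 1) :
    (∃ A : Subgroup G, A.Normal ∧ IsMulCommutative A ∧ A.index = m) ∨
      ∃ p e : ℕ, p.Prime ∧ m = p ^ e ∧ ∃ P A : Subgroup G, P.Normal ∧ A.Normal ∧ IsPGroup p P ∧
        IsMulCommutative A ∧ P ⊓ A = ⊥ ∧ P ⊔ A = ⊤ := by
  classical
  obtain ⟨χ₀, hχ₀⟩ := hex
  have hm0 : m ≠ 0 := hχ₀ ▸ (charDegree_pos χ₀.2).ne'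
  set N := ⨅ p ∈ m.primeFactors, Cfsg.pResidual p G with hN
  have hle : ∀ p ∈ m.primeFactors, N ≤ Cfsg.pResidual p G := fun p hp => iInf₂_le p hp
  haveI hNn : N.Normal := ⟨fun x hx g => by
    rw [hN, Subgroup.mem_iInf] at hx ⊢
    intro p
    have h1 := hx p
    rw [Subgroup.mem_iInf] at h1 ⊢
    intro hp
    haveI : Fact p.Prime := ⟨Nat.prime_of_mem_primeFactors hp⟩
    exact (CfsgLib.Transfer.pResidual_normal (p := p) (G := G)).conj_mem x (h1 hp) g⟩
  have hres : ∀ p ∈ m.primeFactors, ¬ p ∣ Nat.card (Cfsg.pResidual p G) := fun p hp => by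
    haveI : Fact p.Prime := ⟨Nat.prime_of_mem_primeFactors hp⟩
    exact not_dvd_card_pResidual fun χ => (h χ).imp id fun e => by rw [e]; exact Nat.dvd_of_mem_primeFactors hp
  have hNm : ∀ p ∈ m.primeFactors, ¬ p ∣ Nat.card N := fun p hp hd =>
    hres p hp (hd.trans (Subgroup.card_dvd_of_le (hle p hp)))
  have hcm : (Nat.card N).Coprime m := Nat.coprime_of_dvd fun q hq hqN hqm =>
    hNm q (Nat.mem_primeFactors.2 ⟨hq, hqm, hm0⟩) hqN
  have hidx : ∀ q, q.Prime → q ∣ N.index → q ∈ m.primeFactors := by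
    intro q hq hd
    haveI : Fact q.Prime := ⟨hq⟩
    rw [Subgroup.index_eq_card] at hd
    obtain ⟨x, hx⟩ := exists_prime_orderOf_dvd_card' (G := G ⧸ N) q hd
    obtain ⟨g, rfl⟩ := QuotientGroup.mk'_surjective N x
    by_contra hqm
    have hgp : ∀ p ∈ m.primeFactors, g ∈ Cfsg.pResidual p G := by
      intro p hp
      haveI : Fact p.Prime := ⟨Nat.prime_of_mem_primeFactors hp⟩
      haveI := CfsgLib.Transfer.pResidual_normal (p := p) (G := G)
      obtain ⟨k, hk⟩ := CfsgLib.Transfer.index_pResidual (p := p) (G := G)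
      have h1 : g ^ q ∈ Cfsg.pResidual p G := hle p hp (by
        rw [← QuotientGroup.eq_one_iff, QuotientGroup.mk_pow, ← hx]
        exact pow_orderOf_eq_one _)
      rw [← QuotientGroup.eq_one_iff, ← orderOf_eq_one_iff]
      refine Nat.eq_one_of_dvd_coprimes (a := p ^ k) (b := q) (Nat.Coprime.pow_left k ?_) ?_ ?_
      · exact (Nat.coprime_primes (Nat.prime_of_mem_primeFactors hp) hq).2 fun e => hqm (e ▸ hp)
      · rw [← hk, Subgroup.index_eq_card]
        exact orderOf_dvd_natCard _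
      · exact orderOf_dvd_of_pow_eq_one (by rw [← QuotientGroup.mk_pow, QuotientGroup.eq_one_iff]; exact h1)
    have hgN : g ∈ N := by
      rw [hN, Subgroup.mem_iInf]
      intro p
      rw [Subgroup.mem_iInf]
      exact hgp p
    rw [QuotientGroup.mk'_apply, (QuotientGroup.eq_one_iff g).2 hgN, orderOf_one] at hx
    exact hq.one_lt.ne hx
  have hcop : N.index.Coprime (Nat.card N) := Nat.coprime_of_dvd fun q hq h1 h2 => hNm q (hidx q hq h1) h2
  haveI hNc : IsMulCommutative N := ItoConverse.isMulCommutative_of_all_linear fun θ => by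
    obtain ⟨χ, hχ⟩ := ItoConverse.degree_dvd_over N θ
    exact Nat.eq_one_of_dvd_coprimes hcm (degree_dvd θ) (hχ.trans (h.degDvd χ))
  have hpow_or : (∃ p e : ℕ, p.Prime ∧ m = p ^ e) ∨ ∀ a b : G, a * b * a⁻¹ * b⁻¹ ∈ N := by
    by_contra hc
    rw [not_or] at hc
    refine hc.2 fun a b => ?_
    rw [hN, Subgroup.mem_iInf]
    intro p
    rw [Subgroup.mem_iInf]
    intro hp
    haveI : Fact p.Prime := ⟨Nat.prime_of_mem_primeFactors hp⟩
    haveI := CfsgLib.Transfer.pResidual_normal (p := p) (G := G)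
    have hcom : IsMulCommutative (G ⧸ Cfsg.pResidual p G) := by
      by_contra hne
      obtain ⟨e, he⟩ := exists_pow_of_nonabelian_pQuotient h _ CfsgLib.Transfer.isPGroup_quotient_pResidual hne
      exact hc.1 ⟨p, e, Fact.out, he⟩
    rw [← QuotientGroup.eq_one_iff, QuotientGroup.mk_mul, QuotientGroup.mk_mul, QuotientGroup.mk_mul,
      hcom.is_comm.comm (a : G ⧸ Cfsg.pResidual p G) b, QuotientGroup.mk_inv, QuotientGroup.mk_inv]
    group
  have hQp : ∀ p e : ℕ, p.Prime → m = p ^ e → IsPGroup p (G ⧸ N) := by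
    intro p e hp he
    refine IsPGroup.of_card (n := N.index.primeFactorsList.length) ?_
    rw [← Subgroup.index_eq_card]
    refine Nat.eq_prime_pow_of_unique_prime_dvd Subgroup.index_ne_zero_of_finite fun {q} hq hd => ?_
    have h1 := Nat.dvd_of_mem_primeFactors (hidx q hq hd)
    rw [he] at h1
    exact (Nat.prime_dvd_prime_iff_eq hq hp).1 (hq.dvd_of_dvd_pow h1)
  set C := Subgroup.centralizer (N : Set G) with hC
  haveI hCn : C.Normal := Subgroup.normal_centralizer
  by_cases hcent : C = ⊤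
  · have hNZ : ∀ g : G, ∀ n ∈ N, g * n = n * g := fun g n hn =>
      (Subgroup.mem_centralizer_iff.1 ((hcent ▸ Subgroup.mem_top g) : g ∈ C) n hn).symm
    rcases hpow_or with ⟨p, e, hp, he⟩ | hall
    · haveI : Fact p.Prime := ⟨hp⟩
      refine Or.inr ⟨p, e, hp, he, ?_⟩
      obtain ⟨P⟩ : Nonempty (Sylow p G) := inferInstance
      have hinf : (P : Subgroup G) ⊓ N = ⊥ := by
        refine (Subgroup.eq_bot_iff_forall _).2 fun z hz => ?_
        obtain ⟨hzP, hzN⟩ := Subgroup.mem_inf.1 hz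
        obtain ⟨i, hi⟩ := P.isPGroup'.exists_card_eq
        have he0 : e ≠ 0 := fun e0 => hm1 (by rw [he, e0, pow_zero])
        have hpN : ¬ p ∣ Nat.card N := hNm p (Nat.mem_primeFactors.2 ⟨hp, he ▸ dvd_pow_self p he0, hm0⟩)
        exact orderOf_eq_one_iff.1 (Nat.eq_one_of_dvd_coprimes
          ((hp.coprime_iff_not_dvd.2 hpN).pow_left i) (hi ▸ Subgroup.orderOf_dvd_natCard _ hzP)
          (Subgroup.orderOf_dvd_natCard _ hzN))
      have hsup : (P : Subgroup G) ⊔ N = ⊤ := by
        rw [← Subgroup.index_eq_one]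
        by_contra hne
        obtain ⟨q, hq, hqd⟩ := Nat.exists_prime_and_dvd hne
        have h1 : q ∣ (P : Subgroup G).index := hqd.trans (Subgroup.index_dvd_of_le le_sup_left)
        obtain ⟨k, hk⟩ := (hQp p e hp he).exists_card_eq
        have h2 : q ∣ p ^ k := by
          rw [← hk, ← Subgroup.index_eq_card]
          exact hqd.trans (Subgroup.index_dvd_of_le le_sup_right)
        exact P.not_dvd_index ((Nat.prime_dvd_prime_iff_eq hq hp).1 (hq.dvd_of_dvd_pow h2) ▸ h1)
      refine ⟨P, N, ⟨fun x hx g => ?_⟩, hNn, P.isPGroup', hNc, hinf, hsup⟩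
      obtain ⟨y, hy, n, hn, rfl⟩ := Subgroup.mem_sup_of_normal_right.1 (hsup ▸ Subgroup.mem_top g)
      have e1 : n * x * n⁻¹ = x := by rw [← hNZ x n hn]; group
      rw [show y * n * x * (y * n)⁻¹ = y * (n * x * n⁻¹) * y⁻¹ by group, e1]
      exact Subgroup.mul_mem _ (Subgroup.mul_mem _ hy hx) (inv_mem hy)
    · exfalso
      haveI : IsMulCommutative G := ⟨⟨fun a b => eq_of_commutator_mem N hcop (hNZ a) (hNZ b) (hall a b)⟩⟩
      have h1 := (irr_comm_hom χ₀.2).1
      rw [apply_one (isCharacter_of_irr χ₀.2), hχ₀, Nat.cast_eq_one] at h1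
      exact hm1 h1
  left
  obtain ⟨g₀, hg₀⟩ : ∃ g, g ∉ C := by
    by_contra hc
    push Not at hc
    exact hcent (top_unique fun g _ => hc g)
  obtain ⟨n₀, hn₀⟩ : ∃ n : N, delta N g₀ n ≠ 1 := by
    by_contra hc
    push Not at hc
    exact hg₀ (Subgroup.mem_centralizer_iff.2 fun y hy => ((delta_eq_one_iff N g₀ ⟨y, hy⟩).1 (hc _)).symm)
  obtain ⟨φ, hφ⟩ := exists_hom_ne_one N hn₀
  have hne : stab N φ ≠ ⊤ := fun e => hφ ((mem_stab N).1 (e ▸ Subgroup.mem_top g₀) n₀)
  obtain ⟨hTi, hTc⟩ := stab_cases N h hcop φ hne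
  have hCT : C ≤ stab N φ := fun c hc => (mem_stab N).2 fun a => by
    rw [(delta_eq_one_iff N c a).2 (Subgroup.mem_centralizer_iff.1 hc a a.2).symm, map_one]
  have hCc : IsMulCommutative C := ⟨⟨fun a b => Subtype.ext (eq_of_commutator_mem N hcop
    (fun n hn => (Subgroup.mem_centralizer_iff.1 a.2 n hn).symm)
    (fun n hn => (Subgroup.mem_centralizer_iff.1 b.2 n hn).symm) (hTc _ (hCT a.2) _ (hCT b.2)))⟩⟩
  refine ⟨C, hCn, hCc, ?_⟩
  by_contra hCm
  have hlt : C < stab N φ := lt_of_le_of_ne hCT fun e => hCm (e ▸ hTi)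
  obtain ⟨y, hyT, hyC⟩ := SetLike.exists_of_lt hlt
  -- an element of prime order modulo `C`
  have hy1 : orderOf (y : G ⧸ C) ≠ 1 := fun e => hyC ((QuotientGroup.eq_one_iff y).1 (orderOf_eq_one_iff.1 e))
  set d := orderOf (y : G ⧸ C) with hd
  set r := d.minFac with hr
  have hrp : r.Prime := Nat.minFac_prime hy1
  have hdpos : 0 < d := orderOf_pos _
  set x := y ^ (d / r) with hx
  have hxT : x ∈ stab N φ := Subgroup.pow_mem _ hyT _
  have hxC : x ∉ C := fun hh => by
    rw [← QuotientGroup.eq_one_iff, hx, QuotientGroup.mk_pow, ← orderOf_dvd_iff_pow_eq_one, ← hd] at hh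
    exact absurd (Nat.le_of_dvd (Nat.div_pos (Nat.le_of_dvd hdpos (Nat.minFac_dvd d)) hrp.pos) hh)
      (not_le_of_gt (Nat.div_lt_self hdpos hrp.one_lt))
  have hxr : x ^ r ∈ C := by
    rw [← QuotientGroup.eq_one_iff, hx, QuotientGroup.mk_pow, QuotientGroup.mk_pow, ← pow_mul,
      Nat.div_mul_cancel (Nat.minFac_dvd d), hd, pow_orderOf_eq_one]
  have hNC : N ≤ C := fun x hx => Subgroup.mem_centralizer_iff.2 fun y hy =>
    congrArg Subtype.val (mul_comm' (⟨y, hy⟩ : N) ⟨x, hx⟩)
  by_cases hab : ∀ a b : G, a * b * a⁻¹ * b⁻¹ ∈ C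
  · exact not_mem_stab_of_central N h hcop hxC hrp hxr (fun g => hab g x) φ hne hxT
  obtain ⟨p, e, hp, he⟩ : ∃ p e : ℕ, p.Prime ∧ m = p ^ e :=
    hpow_or.resolve_right fun hh => hab fun a b => hNC (hh a b)
  haveI : Fact p.Prime := ⟨hp⟩
  have hQ : IsPGroup p (G ⧸ C) := (hQp p e hp he).of_surjective (QuotientGroup.map N C (MonoidHom.id G) hNC)
    (fun q => by
      obtain ⟨g, rfl⟩ := QuotientGroup.mk'_surjective C q
      exact ⟨QuotientGroup.mk' N g, rfl⟩)
  have hQne : commutator (G ⧸ C) ≠ ⊥ := fun hh => hab fun a b => by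
    rw [← QuotientGroup.eq_one_iff, ← Subgroup.mem_bot, ← hh, commutator_def]
    exact Subgroup.commutator_mem_commutator (Subgroup.mem_top (a : G ⧸ C)) (Subgroup.mem_top (b : G ⧸ C))
  obtain ⟨w, hw, hw1⟩ := (Subgroup.bot_or_exists_ne_one _).resolve_left
    (PReduced.inf_center_ne_bot hQ hQne)
  obtain ⟨k, hk⟩ := hQ.exists_card_eq
  obtain ⟨i, -, hi⟩ := (Nat.dvd_prime_pow hp).1 (hk ▸ orderOf_dvd_natCard w)
  have hi0 : i ≠ 0 := fun e0 => hw1 (orderOf_eq_one_iff.1 (by rw [hi, e0, pow_zero]))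
  set zb := w ^ p ^ (i - 1) with hzb
  have hzb1 : zb ≠ 1 := fun hh => by
    rw [hzb, ← orderOf_dvd_iff_pow_eq_one, hi, Nat.pow_dvd_pow_iff_le_right hp.one_lt] at hh
    omega
  have hzbp : zb ^ p = 1 := by
    rw [hzb, ← pow_mul, ← pow_succ, Nat.sub_add_cancel (Nat.pos_of_ne_zero hi0), ← hi, pow_orderOf_eq_one]
  have hzbm : zb ∈ commutator (G ⧸ C) ⊓ Subgroup.center (G ⧸ C) := Subgroup.pow_mem _ hw (p ^ (i - 1))
  obtain ⟨hzbD, hzbZ⟩ := Subgroup.mem_inf.1 hzbm
  clear_value zb
  obtain ⟨z, hz⟩ := QuotientGroup.mk'_surjective C zb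
  rw [QuotientGroup.mk'_apply] at hz
  have hzC : z ∉ C := fun hh => hzb1 (hz ▸ (QuotientGroup.eq_one_iff z).2 hh)
  have hzT : z ∉ stab N φ := not_mem_stab_of_central N h hcop hzC hp
    (by rw [← QuotientGroup.eq_one_iff, QuotientGroup.mk_pow, hz, hzbp])
    (fun g => by
      rw [← QuotientGroup.eq_one_iff, QuotientGroup.mk_mul, QuotientGroup.mk_mul, QuotientGroup.mk_mul, hz,
        QuotientGroup.mk_inv, QuotientGroup.mk_inv, hz, Subgroup.mem_center_iff.1 hzbZ (g : G ⧸ C),
        mul_inv_cancel_right, mul_inv_cancel]) φ hne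
  -- an abelian subgroup of the quotient of index less than `m`
  set A := Subgroup.closure ((((stab N φ).map (QuotientGroup.mk' C) : Subgroup (G ⧸ C)) : Set (G ⧸ C)) ∪ {zb}) with hA
  haveI hAc : IsMulCommutative A := by
    refine Subgroup.isMulCommutative_closure ?_
    intro a ha b hb
    rcases hb with hb | hb
    swap
    · rw [Set.mem_singleton_iff.1 hb]; exact Subgroup.mem_center_iff.1 hzbZ a
    rcases ha with ha | ha
    swap
    · rw [Set.mem_singleton_iff.1 ha]; exact (Subgroup.mem_center_iff.1 hzbZ b).symm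
    obtain ⟨u, hu, rfl⟩ := ha
    obtain ⟨v, hv, rfl⟩ := hb
    rw [← map_mul, ← map_mul, ← mul_inv_eq_one, ← map_inv, ← map_mul, QuotientGroup.mk'_apply,
      QuotientGroup.eq_one_iff, mul_inv_rev, ← mul_assoc]
    exact hNC (hTc u hu v hv)
  have hTb : ((stab N φ).map (QuotientGroup.mk' C)).index = m := by
    rw [Subgroup.index_map_eq _ (QuotientGroup.mk'_surjective C) (by rw [QuotientGroup.ker_mk']; exact hCT), hTi]
  have hlt' : (stab N φ).map (QuotientGroup.mk' C) < A := by
    refine lt_of_le_of_ne (fun u hu => Subgroup.subset_closure (Or.inl hu)) fun e => hzT ?_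
    obtain ⟨u, hu, hue⟩ : zb ∈ (stab N φ).map (QuotientGroup.mk' C) := e ▸ Subgroup.subset_closure (Or.inr rfl)
    rw [QuotientGroup.mk'_apply, ← hz, QuotientGroup.eq] at hue
    have := Subgroup.mul_mem _ hu (hCT hue)
    rwa [mul_inv_cancel_left] at this
  have hlt2 := Subgroup.index_strictAnti hlt'
  rw [hTb] at hlt2
  obtain ⟨χ, hχ⟩ := GaloisDegree.exists_apply_ne hzb1
  have hχm : charDegree (χ : G ⧸ C → ℂ) = m := (twoDeg_quotient C h χ).resolve_left fun hh =>
    hχ (GaloisDegree.apply_commutator_of_linear χ.2 hh hzbD)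
  have := degree_le_index_of_comm A χ
  omega

end CfsgLib.DegreeOneP
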