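import Cfsg.Agent.DegreeOneP.TwoDegrees
import Cfsg.Agent.Clifford.Monomial
import Cfsg.Agent.IndFun.Basic

/-!
Two character degrees give an abelian derived subgroup.
-/

set_option autoImplicit false
set_option linter.unusedSectionVars false

namespace CfsgLib.DegreeOneP

open Cfsg CfsgLib.CharBasics
open scoped commutatorElement

universe u

/-- Taketa's argument for two degrees. -/
theorem derived_two_of_nilpotent {P : Type u} [Group P] [Finite P] [Group.IsNilpotent P] {m : ℕ}
    (h : TwoDeg m P) : ∀ a ∈ commutator P, ∀ b ∈ commutator P, a * b = b * a := by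
  classical
  haveI := Fintype.ofFinite P
  intro a ha b hb
  rw [← commutatorElement_eq_one_iff_mul_comm]
  by_contra hne
  obtain ⟨χ, hχ⟩ := GaloisDegree.exists_apply_ne hne
  rcases h χ with h1 | hm
  · refine hχ (GaloisDegree.apply_commutator_of_linear χ.2 h1 ?_)
    rw [commutator_def]
    exact Subgroup.commutator_mem_commutator (Subgroup.mem_top _) (Subgroup.mem_top _)
  obtain ⟨H, lam, hlam⟩ := Clifford.monomial_of_isNilpotent _ P rfl (χ : P → ℂ) χ.2
  have hidx : H.index = m := by
    have h1 := congrFun hlam 1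
    rw [indFun_apply_one, map_one, Units.val_one, mul_one, apply_one (isCharacter_of_irr χ.2), hm, Nat.cast_inj] at h1
    exact h1.symm
  -- all constituents of the permutation character are linear
  obtain ⟨r, f, hf, hdec⟩ := exists_decomp (isCharacter_indFun H (θ := fun _ : H => (1 : ℂ))
    (isCharacter_of_irr isIrrCharacter_one))
  haveI := Fintype.ofFinite H
  obtain ⟨i0, hi0⟩ : ∃ i, f i = fun _ => 1 := by
    by_contra hh
    push Not at hh
    have h1 := classInner_indFun H (fun _ : H => (1 : ℂ)) (f := fun _ : P => (1 : ℂ)) (fun _ _ => rfl)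
    rw [classInner_self isIrrCharacter_one, hdec, classInner_sum_left] at h1
    exact zero_ne_one ((Finset.sum_eq_zero fun i _ =>
      classInner_ne (hf i) isIrrCharacter_one (hh i)).symm.trans h1)
  have h1 := congrFun hdec 1
  rw [indFun_apply_one, mul_one, Finset.sum_apply,
    Finset.sum_congr rfl (fun i _ => apply_one (isCharacter_of_irr (hf i))), ← Nat.cast_sum, Nat.cast_inj, hidx] at h1
  have hi0d : Cfsg.charDegree (f i0) = 1 := by simp [Cfsg.charDegree, hi0]
  have hle : commutator P ≤ H := by
    intro y hy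
    have hall : ∀ i, f i y = f i 1 := by
      intro i
      refine GaloisDegree.apply_commutator_of_linear (hf i) ?_ hy
      by_cases hi : i = i0
      · subst hi; exact hi0d
      · have h2 := Finset.sum_le_sum_of_subset (f := fun i => Cfsg.charDegree (f i)) (Finset.subset_univ {i0, i})
        rw [Finset.sum_pair (Ne.symm hi), ← h1] at h2
        refine (h ⟨f i, hf i⟩).resolve_right ?_
        simp only
        omega
    have h3 : Cfsg.indFun H (fun _ => (1 : ℂ)) y = (H.index : ℂ) := by
      have h5 := congrFun hdec 1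
      rw [indFun_apply_one, mul_one, Finset.sum_apply] at h5
      rw [hdec, Finset.sum_apply, h5]
      exact Finset.sum_congr rfl fun i _ => hall i
    rw [CfsgLib.IndFun.indFun_const_one_eq_card_fixedBy, Nat.cast_inj, Subgroup.index] at h3
    have h4 : MulAction.fixedBy (P ⧸ H) y = Set.univ :=
      Set.eq_of_subset_of_ncard_le (Set.subset_univ _) (by rw [Set.ncard_univ, ← Nat.card_coe_set_eq, h3])
    have := (CfsgLib.IndFun.mk_mem_fixedBy_iff H y 1).mp (h4 ▸ Set.mem_univ _)
    simpa using this
  refine hχ ?_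
  rw [hlam, indFun_apply_one, map_one, Units.val_one, mul_one, Cfsg.indFun,
    Finset.sum_congr rfl (g := fun _ => (1 : ℂ)) fun x _ => ?_,
    Finset.sum_const, Finset.card_univ, nsmul_one, ← Nat.card_eq_fintype_card, ← H.index_mul_card, Nat.cast_mul,
    mul_comm (H.index : ℂ), inv_mul_cancel_left₀ (Nat.cast_ne_zero.mpr Nat.card_pos.ne')]
  have hca : x⁻¹ * a * x ∈ H := hle (by simpa using (inferInstance : (commutator P).Normal).conj_mem a ha x⁻¹)
  have hcb : x⁻¹ * b * x ∈ H := hle (by simpa using (inferInstance : (commutator P).Normal).conj_mem b hb x⁻¹)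
  have he : x⁻¹ * ⁅a, b⁆ * x = ((⁅(⟨_, hca⟩ : H), ⟨_, hcb⟩⁆ : H) : P) := by
    simp only [commutatorElement_def, Subgroup.coe_mul, InvMemClass.coe_inv]
    group
  rw [he, CfsgLib.IndFun.extendByZero_mem _ (Subtype.prop _), Subtype.coe_eta, map_commutatorElement,
    commutatorElement_eq_one_iff_mul_comm.2 (mul_comm _ _), Units.val_one]

theorem derived_commutative {G : Type u} [Group G] [Finite G] {m : ℕ} (h : TwoDeg m G)
    (hex : ∃ χ : IrrCharacter G, charDegree (χ : G → ℂ) = m) (hm1 : m ≠ 1) :
    ∀ a ∈ commutator G, ∀ b ∈ commutator G, a * b = b * a := by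
  classical
  rcases twoDeg_structure h hex hm1 with ⟨A, hAn, hAc, hAi⟩ | ⟨p, e, hp, -, P, A, hPn, hAn, hPp, hAc, hinf, hsup⟩
  · have hlin : ∀ ψ : IrrCharacter (G ⧸ A), charDegree (ψ : G ⧸ A → ℂ) = 1 := by
      intro ψ
      refine (twoDeg_quotient A h ψ).resolve_right fun hm => ?_
      haveI := Fintype.ofFinite (G ⧸ A)
      haveI := finite_irrCharacter (G := G ⧸ A)
      haveI := Fintype.ofFinite (IrrCharacter (G ⧸ A))
      have h1 := sum_sq_degree (G := G ⧸ A)
      rw [← Finset.add_sum_erase _ _ (Finset.mem_univ ψ), hm, ← Subgroup.index_eq_card, hAi] at h1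
      by_cases hψ : ψ = CharBasics.oneChar
      · have : charDegree (ψ : G ⧸ A → ℂ) = 1 := by
          subst hψ
          simp [charDegree, CharBasics.oneChar]
        exact hm1 (hm.symm.trans this)
      · have h2 := Finset.single_le_sum (f := fun χ : IrrCharacter (G ⧸ A) => charDegree (χ : G ⧸ A → ℂ) ^ 2)
          (fun _ _ => Nat.zero_le _) (Finset.mem_erase.2 ⟨Ne.symm hψ, Finset.mem_univ CharBasics.oneChar⟩)
        have h3 : 0 < charDegree ((CharBasics.oneChar : IrrCharacter (G ⧸ A)) : G ⧸ A → ℂ) ^ 2 :=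
          pow_pos (charDegree_pos (CharBasics.oneChar : IrrCharacter (G ⧸ A)).2) 2
        have hm0 : 0 < m := hm ▸ charDegree_pos ψ.2
        have h4 : m ≤ m ^ 2 := Nat.le_self_pow two_ne_zero m
        omega
    haveI hQ := ItoConverse.isMulCommutative_of_all_linear hlin
    have hle : commutator G ≤ A := Subgroup.Normal.quotient_commutative_iff_commutator_le.1 hQ
    exact fun a ha b hb => congrArg Subtype.val (hAc.is_comm.comm (⟨a, hle ha⟩ : A) ⟨b, hle hb⟩)
  · haveI : Fact p.Prime := ⟨hp⟩
    haveI : Group.IsNilpotent P := hPp.isNilpotent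
    have hcomm : ∀ x ∈ P, ∀ y ∈ A, x * y = y * x := fun x hx y hy =>
      Subgroup.commute_of_normal_of_disjoint P A hPn hAn (disjoint_iff.2 hinf) x y hx hy
    have hd : ∀ g : G, ∃ x ∈ P, ∃ y ∈ A, x * y = g := fun g =>
      Subgroup.mem_sup_of_normal_left.1 (hsup ▸ Subgroup.mem_top g)
    have hP2 : TwoDeg m P := fun θ => by
      -- the restriction of an irreducible character is irreducible
      haveI := Fintype.ofFinite G
      haveI := Fintype.ofFinite P
      obtain ⟨χ', hχ'⟩ : ∃ χ' : IrrCharacter G, ∀ n : P, (χ' : G → ℂ) n = (θ : P → ℂ) n := by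
        let π : G ⧸ A ≃* P := by
          refine (MulEquiv.ofBijective ((QuotientGroup.mk' A).comp P.subtype) ⟨?_, ?_⟩).symm
          · rw [← MonoidHom.ker_eq_bot_iff, eq_bot_iff]
            intro x hx
            rw [MonoidHom.mem_ker, MonoidHom.comp_apply, QuotientGroup.mk'_apply, QuotientGroup.eq_one_iff] at hx
            exact Subgroup.mem_bot.2 (Subtype.ext (Subgroup.mem_bot.1 (hinf ▸ Subgroup.mem_inf.2 ⟨x.2, hx⟩)))
          · intro q
            obtain ⟨g, rfl⟩ := QuotientGroup.mk'_surjective A q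
            obtain ⟨x, hx, y, hy, rfl⟩ := hd g
            exact ⟨⟨x, hx⟩, by simp [(QuotientGroup.eq_one_iff y).2 hy]⟩
        refine ⟨⟨fun g => (θ : P → ℂ) (π (QuotientGroup.mk' A g)),
          Clifford.isIrrCharacter_comp θ.2 (π.toMonoidHom.comp (QuotientGroup.mk' A))
            (π.surjective.comp (QuotientGroup.mk'_surjective A))⟩, fun n => congrArg (θ : P → ℂ) ?_⟩
        exact π.eq_symm_apply.1 rfl
      rcases h χ' with h1 | h1
      · left
        unfold charDegree at h1 ⊢
        rwa [← hχ' 1]
      · right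
        unfold charDegree at h1 ⊢
        rwa [← hχ' 1]
    have hle : commutator G ≤ (commutator P).map P.subtype := by
      haveI : IsMulCommutative A := hAc
      rw [commutator_def, Subgroup.commutator_le]
      intro g₁ _ g₂ _
      obtain ⟨x, hx, y, hy, rfl⟩ := hd g₁
      obtain ⟨u, hu, v, hv, rfl⟩ := hd g₂
      have e : ⁅x * y, u * v⁆ = ⁅x, u⁆ := by
        have c1 : Commute x v := hcomm x hx v hv
        have c2 : Commute u y := hcomm u hu y hy
        have c3 : Commute y v := congrArg Subtype.val (hAc.is_comm.comm (⟨y, hy⟩ : A) ⟨v, hv⟩)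
        have k1 : Commute y (u * v) := c2.symm.mul_right c3
        have k2 : Commute x v := c1
        rw [commutatorElement_def, commutatorElement_def]
        calc x * y * (u * v) * (x * y)⁻¹ * (u * v)⁻¹ = x * (y * (u * v) * y⁻¹) * x⁻¹ * (v⁻¹ * u⁻¹) := by group
          _ = x * u * (v * x⁻¹ * v⁻¹) * u⁻¹ := by rw [k1.eq]; group
          _ = x * u * x⁻¹ * u⁻¹ := by rw [(k2.symm.inv_right).eq, mul_inv_cancel_right]
      rw [e]
      exact ⟨⁅(⟨x, hx⟩ : P), ⟨u, hu⟩⁆, by
        rw [commutator_def]; exact Subgroup.commutator_mem_commutator (Subgroup.mem_top _) (Subgroup.mem_top _), rfl⟩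
    intro a ha b hb
    obtain ⟨a', ha', rfl⟩ := hle ha
    obtain ⟨b', hb', rfl⟩ := hle hb
    rw [← map_mul, ← map_mul, derived_two_of_nilpotent hP2 a' ha' b' hb']

end CfsgLib.DegreeOneP
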